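import Cfsg.Agent.H337.Bend.Iface
import Cfsg.Agent.H753.UThreeDeg
import Cfsg.Agent.H337.UThreeStd
import Cfsg.Agent.H283.OddComp
import Cfsg.Agent.KFacts.RgdLieCharP
import Cfsg.Agent.Lib.CoprimeHyperplane
import Cfsg.Agent.H340.OddLie
import Cfsg.Agent.HKS.EndOrd
import Cfsg.Agent.ThreePrime.OrderThree
import Cfsg.Agent.S0815
import Cfsg.Agent.S1069
import Cfsg.Agent.H979.LieSplit
import Cfsg.Agent.H580.LieBad
import Cfsg.Agent.H498.Ab.Def

/-!
# S3145, piece `OddU` (helper753)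

No standard subgroup of type `U₃(2 ^ n)` with `m₂(C(K)) ≥ 2` in a simple group of Lie type in odd characteristic.

* `le_norm`, `no_inv` : a four-group of `C(K)` normalises no `p`-subgroup `≠ 1` (Borel–Tits);
* `oddU` : the piece.
-/

set_option autoImplicit false

namespace Cfsg.Agent.H753.OddU

open Subgroup Cfsg

universe u

section Local

variable {G : Type u} [Group G] [Finite G] {K : Subgroup G}

theorem cent_le (hK : IsStandardSubgroup K) {v : G} (hv : v ∈ centralizer (K : Set G)) (hv2 : orderOf v = 2) :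
    centralizer ({v} : Set G) ≤ normalizer (K : Set G) := by
  intro g hg
  rw [hK.2.2.2]
  by_contra hn
  have h1 := hK.2.1.2 g hn
  have h2 : v ∈ centralizer (K : Set G) ⊓ (centralizer (K : Set G)).map (MulAut.conj g).toMonoidHom := by
    refine ⟨hv, v, hv, ?_⟩
    show g * v * g⁻¹ = v
    rw [mem_centralizer_singleton_iff.1 hg, mul_inv_cancel_right]
  have h3 := Subgroup.orderOf_dvd_natCard _ h2
  rw [hv2] at h3
  exact (Nat.not_even_iff_odd.2 h1) (even_iff_two_dvd.2 h3)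

/-- `W` is generated by the fixed points of the involutions of `A` -/
theorem le_norm (hK : IsStandardSubgroup K) {p : ℕ} [hp : Fact p.Prime] (hp2 : p ≠ 2) {A : Subgroup G}
    (hA : IsElementaryAbelian 2 A) (hA2 : 2 < Nat.card A) (hAY : A ≤ centralizer (K : Set G)) {W : Subgroup G}
    (hW : IsPGroup p W) (hAW : A ≤ normalizer (W : Set G)) : W ≤ normalizer (K : Set G) := by
  have : Fact (Nat.Prime 2) := ⟨Nat.prime_two⟩
  have h1 := Cfsg.Agent.Lib.CoprimeHyperplane.le_iSup_hyperplane (p := 2) A W hA (by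
    rintro rfl
    rw [Subgroup.card_bot] at hA2
    omega) (by
      obtain ⟨k, hk⟩ := hW.exists_card_eq
      rw [hk]
      exact Nat.Coprime.pow_left _ ((Nat.coprime_primes hp.out Nat.prime_two).2 hp2)) hAW
  rw [h1]
  refine iSup_le ?_
  rintro ⟨B, hBA, hB⟩
  -- an involution of `B`
  have hB1 : B ≠ ⊥ := by
    rintro rfl
    rw [Subgroup.relIndex_bot_left] at hB
    omega
  obtain ⟨b, hb, hb1⟩ : ∃ b : G, b ∈ B ∧ b ≠ 1 := by
    obtain ⟨b, hb⟩ := (Subgroup.ne_bot_iff_exists_ne_one).1 hB1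
    exact ⟨b, b.2, fun h => hb (Subtype.ext h)⟩
  have hb2 : orderOf (b : G) = 2 := orderOf_eq_prime (hA.2 _ (hBA hb)) hb1
  refine le_trans ?_ (cent_le hK (hAY (hBA hb)) hb2)
  refine inf_le_right.trans ?_
  intro x hx
  rw [mem_centralizer_singleton_iff]
  exact (mem_centralizer_iff.1 hx _ hb).symm

/-- Borel–Tits -/
def BTits (p : ℕ) (G : Type*) [Group G] : Prop :=
  ∀ W : Subgroup G, IsPGroup p W → W ≠ ⊥ → ∃ V : Subgroup G, IsPGroup p V ∧ W ≤ V ∧
    normalizer (W : Set G) ≤ normalizer (V : Set G) ∧ centralizer (V : Set G) ≤ V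

theorem not_pgroup (hK : IsStandardSubgroup K) {p : ℕ} [hp : Fact p.Prime] {W : Subgroup G} (hW : IsPGroup p W) :
    ¬ K ≤ W := by
  intro h
  have h1 : IsPGroup p K := hW.to_le h
  have h2 : Group.IsNilpotent K := h1.isNilpotent
  have h3 : Group.IsSolvable K := inferInstance
  have hq := hK.1
  have hperf := hq.1
  have hs := hq.2
  have h4 : Group.IsSolvable (↥K ⧸ center ↥K) := inferInstance
  have h5 : Group.IsPerfect (↥K ⧸ center ↥K) :=
    Group.IsPerfect.ofSurjective (QuotientGroup.mk'_surjective (Subgroup.center ↥K))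
  have h6 := (IsSimpleGroup.comm_iff_isSolvable (G := ↥K ⧸ center ↥K)).2 h4
  have h7 : commutator (↥K ⧸ center ↥K) = ⊥ := by
    rw [commutator_def, Subgroup.commutator_eq_bot_iff_le_centralizer]
    intro x _
    rw [mem_centralizer_iff]
    intro y _
    exact h6 y x
  rw [h5.commutator_eq_top] at h7
  exact top_ne_bot h7

theorem no_inv (hK : IsStandardSubgroup K) {p : ℕ} [hp : Fact p.Prime] (hp2 : p ≠ 2) {A : Subgroup G}
    (hA : IsElementaryAbelian 2 A) (hA2 : 2 < Nat.card A) (hAY : A ≤ centralizer (K : Set G)) (hBT : BTits p G)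
    {W : Subgroup G} (hW : IsPGroup p W) (hAW : A ≤ normalizer (W : Set G)) : W = ⊥ := by
  by_contra hW1
  obtain ⟨V, hV, hWV, hN, hC⟩ := hBT W hW hW1
  have hVN := le_norm hK hp2 hA hA2 hAY hV (hAW.trans hN)
  -- `[V, A] ≤ V ∩ Y`
  set Y := centralizer (K : Set G) with hY
  have hYN : ∀ g ∈ normalizer (K : Set G), ∀ y ∈ Y, g * y * g⁻¹ ∈ Y := by
    intro g hg y hy
    rw [hK.2.2.2] at hg
    exact (mem_normalizer_iff.1 hg y).1 hy
  have hne : V ⊓ Y ≠ ⊥ := by
    intro hbot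
    have h1 : A ≤ centralizer (V : Set G) := by
      intro a ha
      rw [mem_centralizer_iff]
      intro v hv
      have h2 : v * a * v⁻¹ * a⁻¹ ∈ V ⊓ Y := by
        refine ⟨?_, Y.mul_mem (hYN v (hVN hv) a (hAY ha)) (Y.inv_mem (hAY ha))⟩
        have h3 : v * a * v⁻¹ * a⁻¹ = v * (a * v⁻¹ * a⁻¹) := by group
        rw [h3]
        exact mul_mem hv ((mem_normalizer_iff.1 (hN (hAW ha)) _).1 (inv_mem hv))
      rw [hbot, mem_bot, mul_inv_eq_one, mul_inv_eq_iff_eq_mul] at h2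
      exact h2
    have h2 := hV.to_le (h1.trans hC)
    obtain ⟨k, hk⟩ := h2.exists_card_eq
    have h3 : 2 ∣ Nat.card A := by
      have hA1 : Nontrivial A := Finite.one_lt_card_iff_nontrivial.1 (by omega)
      obtain ⟨a, ha⟩ := exists_ne (1 : A)
      have h4 : orderOf a = 2 := orderOf_eq_prime (Subtype.ext (hA.2 a a.2)) ha
      rw [← h4]
      exact orderOf_dvd_natCard a
    rw [hk] at h3
    exact hp2 ((Nat.prime_dvd_prime_iff_eq Nat.prime_two hp.out).1 (Nat.prime_two.dvd_of_dvd_pow h3)).symm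
  -- the second step
  have hW1 : IsPGroup p ↥(V ⊓ Y) := hV.to_le inf_le_left
  obtain ⟨V', hV', hWV', hN', hC'⟩ := hBT _ hW1 hne
  have hAV' : A ≤ normalizer (V' : Set G) := by
    refine le_trans ?_ hN'
    intro a ha
    rw [mem_normalizer_iff]
    have key : ∀ x ∈ A, ∀ y ∈ V ⊓ Y, x * y * x⁻¹ ∈ V ⊓ Y := by
      intro x hx y hy
      exact ⟨(mem_normalizer_iff.1 (hN (hAW hx)) _).1 hy.1, Y.mul_mem (Y.mul_mem (hAY hx) hy.2) (Y.inv_mem (hAY hx))⟩
    intro y
    constructor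
    · exact key a ha y
    · intro h
      have := key a⁻¹ (inv_mem ha) _ h
      have e : a⁻¹ * (a * y * a⁻¹) * a⁻¹⁻¹ = y := by group
      rwa [e] at this
  have hV'N := le_norm hK hp2 hA hA2 hAY hV' hAV'
  have hKV' : K ≤ normalizer (V' : Set G) := by
    refine le_trans ?_ hN'
    refine le_trans ?_ (centralizer_le_normalizer _)
    intro k hk
    rw [mem_centralizer_iff]
    intro y hy
    exact (mem_centralizer_iff.1 hy.2 k hk).symm
  -- `V' ∩ K ≤ Z(K)`
  have hVK : ∀ x ∈ V', x ∈ K → x ∈ Y := by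
    have hn : (V'.subgroupOf K).Normal := by
      refine ⟨fun x hx g => ?_⟩
      rw [mem_subgroupOf] at hx ⊢
      exact (mem_normalizer_iff.1 (hKV' g.2) _).1 hx
    rcases Cfsg.Agent.SignalizersComponents.Components.quasisimple_normal hK.1 _ hn with h | h
    · exact absurd (subgroupOf_eq_top.1 h) (not_pgroup hK hV')
    · intro x hxV hxK
      have h1 : (⟨x, hxK⟩ : ↥K) ∈ center ↥K := h (mem_subgroupOf.2 hxV)
      rw [hY, mem_centralizer_iff]
      intro k hk
      exact congrArg Subtype.val (mem_center_iff.1 h1 ⟨k, hk⟩)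
  -- so `[V', K] = 1`
  have hVY : V' ≤ Y := by
    intro g hg
    refine Cfsg.Agent.H298.UThree.comm_of_central hK.1.1.commutator_eq_top ?_
    intro k hk
    have h1 : g * k * g⁻¹ * k⁻¹ ∈ K := mul_mem ((mem_normalizer_iff.1 (hV'N hg) k).1 hk) (inv_mem hk)
    refine ⟨h1, hVK _ ?_ h1⟩
    have h3 : g * k * g⁻¹ * k⁻¹ = g * (k * g⁻¹ * k⁻¹) := by group
    rw [h3]
    exact mul_mem hg ((mem_normalizer_iff.1 (hKV' hk) _).1 (inv_mem hg))
  refine not_pgroup hK hV' (le_trans ?_ hC')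
  intro k hk
  rw [mem_centralizer_iff]
  intro y hy
  exact (mem_centralizer_iff.1 (hVY hy) k hk).symm

theorem not_dvd (hK : IsStandardSubgroup K) {p : ℕ} [hp : Fact p.Prime] (hp2 : p ≠ 2) {A : Subgroup G}
    (hA : IsElementaryAbelian 2 A) (hA2 : 2 < Nat.card A) (hAY : A ≤ centralizer (K : Set G)) (hBT : BTits p G) :
    ¬ p ∣ Nat.card K := by
  intro hd
  obtain ⟨x, hx⟩ := exists_prime_orderOf_dvd_card' p hd
  have h1 : IsPGroup p ↥(zpowers (x : G)) := IsPGroup.of_card (n := 1) (by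
    rw [Nat.card_zpowers, Subgroup.orderOf_coe, hx, pow_one])
  have h2 := no_inv hK hp2 hA hA2 hAY hBT h1 (by
    refine le_trans ?_ (centralizer_le_normalizer _)
    intro a ha
    rw [mem_centralizer_iff]
    intro y hy
    exact mem_centralizer_iff.1 (hAY ha) y (zpowers_le.2 x.2 hy))
  rw [zpowers_eq_bot] at h2
  have h3 : x = 1 := Subtype.ext h2
  rw [h3, orderOf_one] at hx
  exact hp.out.one_lt.ne hx

/-- `p`-elements of `N(K)` centralise `K` -/
theorem comm_of_pelem (hK : IsStandardSubgroup K) {p : ℕ} [hp : Fact p.Prime]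
    (hpa : ¬ p ∣ Nat.card (MulAut (↥K ⧸ center ↥K))) {u : G} (hu : u ∈ normalizer (K : Set G)) {k : ℕ}
    (huk : u ^ p ^ k = 1) : u ∈ centralizer (K : Set G) := by
  have h1 : Schreier.Balance.quoAut ↥K (K.normalizerMonoidHom ⟨u, hu⟩) = 1 := by
    have h2 : (Schreier.Balance.quoAut ↥K (K.normalizerMonoidHom ⟨u, hu⟩)) ^ p ^ k = 1 := by
      rw [← map_pow, ← map_pow]
      have h3 : (⟨u, hu⟩ : normalizer (K : Set G)) ^ p ^ k = 1 := Subtype.ext huk
      rw [h3, map_one, map_one]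
    have h3 := Nat.dvd_gcd (orderOf_dvd_of_pow_eq_one h2)
      (orderOf_dvd_natCard (Schreier.Balance.quoAut ↥K (K.normalizerMonoidHom ⟨u, hu⟩)))
    have h4 : Nat.Coprime (p ^ k) (Nat.card (MulAut (↥K ⧸ center ↥K))) :=
      Nat.Coprime.pow_left _ ((Nat.Prime.coprime_iff_not_dvd hp.out).2 hpa)
    rw [h4.gcd_eq_one] at h3
    exact orderOf_eq_one_iff.1 (Nat.dvd_one.1 h3)
  have h2 := Schreier.Balance.eq_one_of_quoAut_eq_one hK.1.1 h1
  rw [mem_centralizer_iff]
  intro y hy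
  have h3 := congrArg (fun φ : MulAut ↥K => ((φ ⟨y, hy⟩ : ↥K) : G)) h2
  have h4 : u * y * u⁻¹ = y := h3
  rw [mul_inv_eq_iff_eq_mul] at h4
  exact h4.symm

end Local

/-- no (B,N)-pair of characteristic `p` in a `p'`-group -/
theorem not_charBN {p : ℕ} [hp : Fact p.Prime] {Q : Type*} [Group Q] [Finite Q] (hQ : ¬ p ∣ Nat.card Q) :
    ¬ H283.DescComp.CharBN p Q := by
  rintro ⟨P, U, ⟨s, hs⟩, hU, -, -, hc⟩
  have hU1 : U = ⊥ := by
    obtain ⟨k, hk⟩ := hU.exists_card_eq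
    rcases Nat.eq_zero_or_pos k with rfl | hk0
    · exact Subgroup.eq_bot_of_card_eq U (by rw [hk, pow_zero])
    · exact absurd ((dvd_pow_self p hk0.ne').trans (hk ▸ Subgroup.card_subgroup_dvd_card U)) hQ
  have hBN : ∀ b ∈ P.B, b ∈ P.B ⊓ P.N := by
    intro b hb
    obtain ⟨u, hu, t, ht, rfl⟩ := hc b hb
    rw [hU1, mem_bot] at hu
    rw [hu, one_mul]
    exact ht
  have hsN : s ∈ P.N := P.subset hs
  refine P.conj_ne s hs (Set.ext fun y => ⟨?_, ?_⟩)
  · rintro ⟨b, hb, rfl⟩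
    have h1 := P.conj_mem s hsN b (hBN b hb)
    have h2 : s * b * s = s * b * s⁻¹ * (s * s) := by group
    show s * b * s ∈ P.B
    rw [h2]
    exact mul_mem h1 (P.sq_mem s hs)
  · intro hy
    have h1 := P.conj_mem s⁻¹ (inv_mem hsN) y (hBN y hy)
    refine ⟨s⁻¹ * y * s⁻¹, ?_, by group⟩
    have h2 : s⁻¹ * y * s⁻¹ = s⁻¹ * y * s⁻¹⁻¹ * (s * s)⁻¹ := by group
    show s⁻¹ * y * s⁻¹ ∈ P.B
    rw [h2]
    exact mul_mem h1 (inv_mem (P.sq_mem s hs))

theorem two_pow_dvd {F : Type} [Field F] [Fintype F] {n : ℕ} (hn : 2 ≤ n) (hF : Fintype.card F = (2 ^ n) ^ 2) :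
    64 ∣ Nat.card (PSU 3 F (2 ^ n)) := by
  obtain ⟨t, ht⟩ : ∃ t, 2 ^ n = t + 1 := ⟨2 ^ n - 1, by have := Nat.one_le_two_pow (n := n); omega⟩
  have h1 := HKS.EndOrd.card_psu_three (F := F) (t := t) (by rw [← ht]; exact hF)
  rw [← ht] at h1
  have h2 : 64 ∣ (2 ^ n) ^ 3 := by
    rw [← pow_mul]
    exact Nat.pow_dvd_pow 2 (show 6 ≤ n * 3 by omega)
  have h3 : 64 ∣ Nat.gcd 3 (t + 2) * Nat.card (PSU 3 F (2 ^ n)) := by
    rw [h1]
    exact h2.mul_right _
  refine Nat.Coprime.dvd_of_dvd_mul_left ?_ h3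
  have h4 : Nat.gcd 3 (t + 2) ∣ 3 := Nat.gcd_dvd_left _ _
  exact Nat.Coprime.coprime_dvd_right h4 (by norm_num)

theorem mod_eight (m : ℕ) : 3 ^ (2 * m + 1) % 8 = 3 := by
  induction m with
  | zero => norm_num
  | succ k ih =>
    have : 3 ^ (2 * (k + 1) + 1) = 9 * 3 ^ (2 * k + 1) := by ring
    rw [this]
    omega

theorem not_ree {G : Type*} [Group G] (h64 : 64 ∣ Nat.card G) : ¬ Lie.IsoRee G := by
  rintro ⟨E, _, _, m, hm, hE, ⟨e⟩⟩
  rw [Nat.card_congr e.toEquiv, Cfsg.Agent.S1069.result hE] at h64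
  have h8 := mod_eight m
  generalize 3 ^ (2 * m + 1) = q at h64 h8
  obtain ⟨t, rfl⟩ : ∃ t, q = t + 1 := ⟨q - 1, by omega⟩
  rw [Nat.add_sub_cancel] at h64
  have h1 : ((t + 1) ^ 3 * t * ((t + 1) ^ 3 + 1)) % 16 = 0 :=
    Nat.mod_eq_zero_of_dvd (dvd_trans (by norm_num) h64)
  have h2 : t % 16 = 2 ∨ t % 16 = 10 := by omega
  rcases h2 with h2 | h2 <;> simp [Nat.mul_mod, Nat.pow_mod, Nat.add_mod, h2] at h1

theorem not_dvd_aut {F : Type*} [Field F] [Fintype F] {n : ℕ} (hn : 2 ≤ n) (hn4 : n ≤ 4)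
    (hF : Fintype.card F = (2 ^ n) ^ 2) {p : ℕ} (hp : p.Prime) (hp2 : p ≠ 2) (hp3 : p ≠ 3)
    (hpU : ¬ p ∣ Nat.card (PSU 3 F (2 ^ n))) : ¬ p ∣ Nat.card (MulAut (PSU 3 F (2 ^ n))) := by
  have : Fact (Nat.Prime 2) := ⟨Nat.prime_two⟩
  rw [Cfsg.Agent.S0815.result 2 n (by omega) rfl hF 3 le_rfl (by
    rintro ⟨-, h⟩
    have : 2 ^ 2 ≤ 2 ^ n := Nat.pow_le_pow_right (by norm_num) hn
    omega)]
  intro h
  rcases hp.dvd_mul.1 h with h | h
  · rcases hp.dvd_mul.1 h with h | h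
    · exact hp3 ((Nat.prime_dvd_prime_iff_eq hp Nat.prime_three).1 (h.trans (Nat.gcd_dvd_left _ _)))
    · rcases hp.dvd_mul.1 h with h | h
      · exact hp2 ((Nat.prime_dvd_prime_iff_eq hp Nat.prime_two).1 h)
      · have h5 : p ≤ n := Nat.le_of_dvd (by omega) h
        have h6 := hp.two_le
        have h7 : p = 4 := by omega
        rw [h7] at hp
        revert hp
        norm_num
  · exact hpU h

theorem isLieFilt {G : Type*} [Group G] {p : ℕ} (hp2 : p ≠ 2) (hR : ¬ Lie.IsoRee G) (hG : IsLieTypeChar p G) :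
    KFacts.RgdLieCharP.IsLieFilt p G := by
  rcases hG with h | h | h | h | h | h | h | h | h | h | h
  · exact Or.inl h
  · exact Or.inr (Or.inl h)
  · exact Or.inr (Or.inr (Or.inl h))
  · exact Or.inr (Or.inr (Or.inr (Or.inl h)))
  · exact Or.inr (Or.inr (Or.inr (Or.inr (Or.inl h))))
  · exact Or.inr (Or.inr (Or.inr (Or.inr (Or.inr (Or.inl h)))))
  · exact Or.inr (Or.inr (Or.inr (Or.inr (Or.inr (Or.inr (Or.inl h))))))
  · exact Or.inr (Or.inr (Or.inr (Or.inr (Or.inr (Or.inr (Or.inr h))))))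
  · exact absurd h.1 hp2
  · exact absurd h.1 hp2
  · exact absurd h.2 hR

theorem classical_or_exc {G : Type*} [Group G] {p : ℕ} (hp2 : p ≠ 2) (hG : IsLieTypeChar p G) :
    H340.IsClassicalChar p G ∨ H340.IsExcChar p G := by
  rcases hG with h | h | h | h | h | h | h | h | h | h | h
  · exact Or.inl (Or.inl h)
  · exact Or.inl (Or.inr (Or.inl h))
  · exact Or.inl (Or.inr (Or.inr (Or.inl h)))
  · exact Or.inl (Or.inr (Or.inr (Or.inr (Or.inl h))))
  · exact Or.inl (Or.inr (Or.inr (Or.inr (Or.inr (Or.inl h)))))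
  · exact Or.inl (Or.inr (Or.inr (Or.inr (Or.inr (Or.inr h)))))
  · exact Or.inr (Or.inl h)
  · exact Or.inr (Or.inr (Or.inl h))
  · exact absurd h.1 hp2
  · exact absurd h.1 hp2
  · exact Or.inr (Or.inr (Or.inr h))

theorem bTits {G : Type*} [Group G] [Finite G] [IsSimpleGroup G] {p : ℕ} [hp : Fact p.Prime]
    (hna : ∃ a b : G, a * b ≠ b * a) (h : KFacts.RgdLieCharP.IsLieFilt p G) : BTits p G := by
  intro W hW hW1
  obtain ⟨V, P, h1, h2, h3, h4, -, h5⟩ := (KFacts.RgdLieCharP.hasFilt_of_lie h).exists_par hna hW hW1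
  exact ⟨V, h1, h2, h4 ▸ h3, h5⟩

/-- **Piece `OddU` of S3145.** -/
theorem oddU : Cfsg.Agent.H337.Bend.OddU.{u} := by
  intro G _ _ _ p hp hp2 hG K hK hU hr
  have hpf : Fact p.Prime := ⟨hp⟩
  -- the elementary abelian group
  obtain ⟨A, hA, hA2, hAY⟩ : ∃ A : Subgroup G, IsElementaryAbelian 2 A ∧ 2 < Nat.card A ∧
      A ≤ centralizer (K : Set G) := by
    unfold PRankLE at hr
    push Not at hr
    obtain ⟨A, h1, h2, h3⟩ := hr
    refine ⟨A.map (centralizer (K : Set G)).subtype, ⟨H498.Ab.comm_map _ h1, ?_⟩, ?_, map_subtype_le A⟩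
    · rintro _ ⟨a, ha, rfl⟩
      exact congrArg Subtype.val (h2 a ha)
    · rw [Subgroup.card_map_of_injective (Subgroup.subtype_injective _)]
      simpa using h3
  obtain ⟨F, iF, iF', n, hn, hF, ⟨e⟩⟩ := hU
  have hKZ : Nat.card (↥K ⧸ center ↥K) ∣ Nat.card K := Subgroup.card_quotient_dvd_card _
  have hKU : Nat.card (↥K ⧸ center ↥K) = Nat.card (PSU 3 F (2 ^ n)) := Nat.card_congr e.toEquiv
  have h64 : 64 ∣ Nat.card K := (hKU ▸ two_pow_dvd hn hF).trans hKZ
  have hR : ¬ Lie.IsoRee G := not_ree (h64.trans (Subgroup.card_subgroup_dvd_card K))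
  have hna : ∃ a b : G, a * b ≠ b * a := by
    by_contra hcon
    push Not at hcon
    have h1 : Group.IsPerfect K := hK.1.1
    have h2 : commutator K = ⊥ := by
      rw [commutator_def, Subgroup.commutator_eq_bot_iff_le_centralizer]
      intro x _
      rw [mem_centralizer_iff]
      intro y _
      exact Subtype.ext (hcon y x)
    rw [h1.commutator_eq_top] at h2
    have h3 : Nat.card K = 1 := by
      rw [← Subgroup.card_top, h2, Subgroup.card_bot]
    rw [h3] at h64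
    omega
  have hpK := not_dvd hK hp2 hA hA2 hAY (bTits hna (isLieFilt hp2 hR hG))
  have hp3 : p ≠ 3 := by
    rintro rfl
    apply hpK
    refine dvd_trans ?_ hKZ
    rw [hKU]
    exact ThreePrime.OrderThree.three_dvd_card_psu F (2 ^ n) hF (by
      have := Nat.pow_le_pow_right (n := 2) (by norm_num) hn
      omega)
  -- the component
  obtain ⟨v, hv, hv2⟩ : ∃ v : G, v ∈ centralizer (K : Set G) ∧ orderOf v = 2 := by
    have hA1 : Nontrivial A := Finite.one_lt_card_iff_nontrivial.1 (by omega)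
    obtain ⟨a, ha⟩ := exists_ne (1 : A)
    exact ⟨a, hAY a.2, orderOf_eq_prime (hA.2 a a.2) fun h => ha (Subtype.ext h)⟩
  obtain ⟨x, hx⟩ : ∃ x : MulAut G, x = MulAut.conj v := ⟨_, rfl⟩
  have hxx : x * x = 1 := by
    rw [hx, ← map_mul]
    have : v * v = 1 := by rw [← pow_two, ← hv2]; exact pow_orderOf_eq_one v
    rw [this, map_one]
  have hfix : ∀ g : G, g ∈ fixedSubgroup x ↔ g ∈ centralizer ({v} : Set G) := by
    intro g
    have h1 : g ∈ fixedSubgroup x ↔ v * g * v⁻¹ = g := by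
      rw [hx]
      exact Iff.rfl
    rw [h1, mem_centralizer_singleton_iff, mul_inv_eq_iff_eq_mul]
    exact eq_comm
  have hKx : K ≤ fixedSubgroup x := by
    intro k hk
    rw [hfix, mem_centralizer_singleton_iff]
    exact mem_centralizer_iff.1 hv k hk
  have hxK : ∀ g ∈ fixedSubgroup x, g ∈ normalizer (K : Set G) := fun g hg =>
    cent_le hK hv hv2 ((hfix g).1 hg)
  have hcomp : IsComponent (K.subgroupOf (fixedSubgroup x)) :=
    H337.UThreeStd.comp_of_normal hK.1 hKx fun g hg k hk => (mem_normalizer_iff.1 (hxK g hg) k).1 hk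
  have hLK : Nat.card ↥(K.subgroupOf (fixedSubgroup x)) = Nat.card K :=
    Nat.card_congr (Subgroup.subgroupOfEquivOfLe hKx).toEquiv
  have hLZ : ¬ p ∣ Nat.card (↥(K.subgroupOf (fixedSubgroup x)) ⧸ center ↥(K.subgroupOf (fixedSubgroup x))) :=
    fun h => hpK (h.trans (hLK ▸ Subgroup.card_quotient_dvd_card _))
  rcases classical_or_exc hp2 hG with hcl | hex
  · -- classical groups
    have h1 := H340.cf_lie_of_classical.{u} hp hp2 hcl x hxx
    have h2 := h1.component hcomp.1 hcomp.2.2 hcomp.2.1.commutator_eq_top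
    have hs := hcomp.2.2
    obtain ⟨P, U, ⟨s, hs'⟩, hU'⟩ := H979.LieSplit.hasSplit_of_isLieTypeChar hp h2
    exact hLZ (H580.LieBad.dvd_card hU' hs')
  · by_cases hn5 : 5 ≤ n
    · exact UThreeDeg.not_hasRep hK.1.1.commutator_eq_top hn5 hF ⟨e⟩
        ((hex.hasRep hp2).comp K.subtype (Subgroup.subtype_injective K))
    · have hpa : ¬ p ∣ Nat.card (MulAut (↥K ⧸ center ↥K)) := by
        rw [Nat.card_congr (MulAut.congr e).toEquiv]
        refine not_dvd_aut hn (by omega) hF hp hp2 hp3 ?_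
        rw [← hKU]
        exact fun h => hpK (h.trans hKZ)
      refine not_charBN hLZ (H283.OddComp.odd_row hp2 hG hR x (by rw [pow_two, hxx]) _ hcomp ?_)
      rintro u ⟨k, hk⟩
      refine mem_sup_right ?_
      have h1 := comm_of_pelem hK hpa (hxK u u.2) (k := k) (congrArg Subtype.val hk)
      rw [mem_centralizer_iff]
      intro y hy
      exact Subtype.ext (mem_centralizer_iff.1 h1 y hy)

end Cfsg.Agent.H753.OddU
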